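import Cfsg.Agent.H642.EvenSyl
import Cfsg.Agent.CpAutMSeven.RanksClass
import Cfsg.Agent.CpAutMSeven.Quo
import Cfsg.Agent.BpSevenCo.Conj
import Cfsg.Agent.H813.CoSevenMain
import Cfsg.Agent.S0399

/-!
# `Co1`, order seven: the number of Sylow 7-subgroups of the centralizers is even (helper642, for S4844)
-/

set_option autoImplicit false
set_option maxRecDepth 100000

namespace Cfsg.Agent.H642.CoSeven

open Cfsg Cfsg.Agent.SporadicA Cfsg.Agent.SporadicStructure.Co0Matrix Cfsg.Agent.CoOneType.CoEval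
open Cfsg.Agent.SporadicA.GolayBase
open Cfsg.Agent.CpAutMSeven.Mat (rR cR okR)
open Cfsg.Agent.CpAutBig.SevenFix (r7 r7_pow)
open Cfsg.Agent.CpAutMSeven.RanksH (s0)
open Cfsg.Spor (Co1)

/-- the test vector -/
local notation "betaV" => Cfsg.Agent.CoOneType.CoEval.beta

/-- the diagonal matrix of a codeword -/
def dg (w : ℕ) : List (List ℤ) :=
  (List.range 24).map fun i => (List.range 24).map fun j => if i = j then (if w.testBit i then -8 else 8) else 0

theorem okA : Ok (dg 2854977) (dg 2854977) := Ok.of_bool (by decide +kernel)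

theorem okB : Ok (dg 5508118) (dg 5508118) := Ok.of_bool (by decide +kernel)

/-- the matrices -/
def MM : ℕ → List (List ℤ)
  | 0 => rR
  | 1 => dg 2854977
  | 2 => dg 5508118
  | _ => cR

/-- the elements -/
def ee : ℕ → Co0
  | 0 => mk okR
  | 1 => mk okA
  | 2 => mk okB
  | _ => (mk okR)⁻¹

theorem rp : ∀ i, Rep (ee i) (MM i)
  | 0 => rep_mk okR
  | 1 => rep_mk okA
  | 2 => rep_mk okB
  | _ + 3 => rep_inv okR

theorem ee_zero : ee 0 = r7 := (CpAutMSeven.RanksH.r7_eq).symm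

theorem sqA : ee 1 * ee 1 = 1 := by
  have h := eq_one_of_oneB rp (w := [1, 1]) (by decide +kernel)
  simpa using h

theorem sqB : ee 2 * ee 2 = 1 := by
  have h := eq_one_of_oneB rp (w := [2, 2]) (by decide +kernel)
  simpa using h

theorem commAB : ee 1 * ee 2 = ee 2 * ee 1 := by
  have h := eq_one_of_oneB rp (w := [1, 2, 1, 2]) (by decide +kernel)
  have h1 : ee 1 * (ee 2 * (ee 1 * ee 2)) = 1 := by simpa using h
  have h2 : ee 2 * (ee 1 * (ee 1 * (ee 2 * (ee 1 * ee 2)))) = ee 2 * ee 1 := by rw [h1, mul_one]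
  rw [← h2]
  calc ee 1 * ee 2 = 1 * (ee 1 * ee 2) := (one_mul _).symm
    _ = (ee 2 * ee 2) * (ee 1 * ee 2) := by rw [sqB]
    _ = ee 2 * (1 * (ee 2 * (ee 1 * ee 2))) := by group
    _ = ee 2 * ((ee 1 * ee 1) * (ee 2 * (ee 1 * ee 2))) := by rw [sqA]
    _ = _ := by group

theorem commA : ee 1 * r7 = r7 * ee 1 := by
  have h := eq_one_of_oneB rp (w := [1, 0, 1, 3]) (by decide +kernel)
  have h1 : ee 1 * (ee 0 * (ee 1 * (ee 0)⁻¹)) = 1 := by
    have h2 : ee 3 = (ee 0)⁻¹ := rfl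
    rw [← h2]
    simpa using h
  rw [← ee_zero]
  have h3 : (ee 1)⁻¹ = ee 1 := inv_eq_of_mul_eq_one_left sqA
  have h4 : ee 0 * (ee 1 * (ee 0)⁻¹) = ee 1 := by
    rw [← h3]
    rw [h3]
    exact (eq_inv_of_mul_eq_one_right h1).trans h3
  calc ee 1 * ee 0 = (ee 0 * (ee 1 * (ee 0)⁻¹)) * ee 0 := by rw [h4]
    _ = ee 0 * ee 1 := by group

theorem commB : ee 2 * r7 = r7 * ee 2 := by
  have h := eq_one_of_oneB rp (w := [2, 0, 2, 3]) (by decide +kernel)
  have h1 : ee 2 * (ee 0 * (ee 2 * (ee 0)⁻¹)) = 1 := by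
    have h2 : ee 3 = (ee 0)⁻¹ := rfl
    rw [← h2]
    simpa using h
  rw [← ee_zero]
  have h3 : (ee 2)⁻¹ = ee 2 := inv_eq_of_mul_eq_one_left sqB
  have h4 : ee 0 * (ee 2 * (ee 0)⁻¹) = ee 2 := (eq_inv_of_mul_eq_one_right h1).trans h3
  calc ee 2 * ee 0 = (ee 0 * (ee 2 * (ee 0)⁻¹)) * ee 0 := by rw [h4]
    _ = ee 0 * ee 2 := by group

/-- not central -/
theorem notMem_center {g : Co0} {l : List ℤ} (hg : ((g.1 betaV : leechLattice) : GolayPt → ℤ) = vec l)
    {i j : ℕ} (hi : i < 24) (hj : j < 24) (h1 : l.getD i 0 = -(8 * 64 ^ i)) (h2 : l.getD j 0 = 8 * 64 ^ j) :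
    g ∉ Subgroup.center Co0 := by
  intro hc
  have hpi : idx (pt i) = i := idx_pt hi
  have hpj : idx (pt j) = j := idx_pt hj
  rcases Co0Basic.eq_one_or_neg_of_mem_center hc with rfl | rfl
  · have h3 := congrFun hg (pt i)
    rw [vec_apply, hpi, h1] at h3
    have h4 : ((((1 : Co0).1 betaV : leechLattice)) : GolayPt → ℤ) (pt i) = 8 * 64 ^ i := by
      show (betaV : GolayPt → ℤ) (pt i) = _
      rw [beta_coe, vec_betaL, hpi]
    rw [h4] at h3
    have : (0 : ℤ) < 8 * 64 ^ i := by positivity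
    omega
  · have h3 := congrFun hg (pt j)
    rw [vec_apply, hpj, h2, Co0Basic.negCo0_apply] at h3
    have h4 : ((-betaV : leechLattice) : GolayPt → ℤ) (pt j) = -(8 * 64 ^ j) := by
      show -((betaV : GolayPt → ℤ) (pt j)) = _
      rw [beta_coe, vec_betaL, hpj]
    rw [h4] at h3
    have : (0 : ℤ) < 8 * 64 ^ j := by positivity
    omega

theorem coe_of {g : Co0} {R : List (List ℤ)} (h : Rep g R) :
    ((g.1 betaV : leechLattice) : GolayPt → ℤ) = vec (ap R betaL) := h.apply (by decide) rfl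

theorem A_notMem : ee 1 ∉ Subgroup.center Co0 :=
  notMem_center (coe_of (rp 1)) (i := 0) (j := 1) (by norm_num) (by norm_num) (by decide +kernel) (by decide +kernel)

theorem B_notMem : ee 2 ∉ Subgroup.center Co0 :=
  notMem_center (coe_of (rp 2)) (i := 1) (j := 0) (by norm_num) (by norm_num) (by decide +kernel) (by decide +kernel)

theorem AB_notMem : ee 1 * ee 2 ∉ Subgroup.center Co0 := by
  refine notMem_center (l := ap (MM 1) (ap (MM 2) betaL)) ?_ (i := 0) (j := 3) (by norm_num) (by norm_num)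
    (by decide +kernel) (by decide +kernel)
  show (((ee 1).1 ((ee 2).1 betaV) : leechLattice) : GolayPt → ℤ) = _
  exact (rp 1).apply (by decide +kernel) (coe_of (rp 2))

/-- the images -/
noncomputable def ea : Co1 := QuotientGroup.mk (ee 1)

/-- the images -/
noncomputable def eb : Co1 := QuotientGroup.mk (ee 2)

theorem ea_sq : ea * ea = 1 := congrArg (QuotientGroup.mk : Co0 → Co1) sqA

theorem eb_sq : eb * eb = 1 := congrArg (QuotientGroup.mk : Co0 → Co1) sqB

theorem eab : ea * eb = eb * ea := congrArg (QuotientGroup.mk : Co0 → Co1) commAB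

theorem ea_s0 : ea * s0 = s0 * ea := congrArg (QuotientGroup.mk : Co0 → Co1) commA

theorem eb_s0 : eb * s0 = s0 * eb := congrArg (QuotientGroup.mk : Co0 → Co1) commB

theorem ea_ne : ea ≠ 1 := fun h => A_notMem ((QuotientGroup.eq_one_iff _).1 h)

theorem eb_ne : eb ≠ 1 := fun h => B_notMem ((QuotientGroup.eq_one_iff _).1 h)

theorem ea_ne_eb : ea ≠ eb := by
  intro h
  have h1 : ea * eb = 1 := by rw [← h, ea_sq]
  exact AB_notMem ((QuotientGroup.eq_one_iff _).1 h1)

open Subgroup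
open Cfsg.Agent.LThreeMB (fr fr_conj)

/-- a conjugate of a power of `s0` -/
theorem four_of_conj {s c : Co1} {i : ℕ} (h : s = c * s0 ^ i * c⁻¹) :
    4 ∣ Nat.card (centralizer ({s} : Set Co1)) := by
  have hf : Finite Co1 := BpSevenCo.Conj.finite_co1
  have hc : ∀ a : Co1, a * s0 = s0 * a → c * a * c⁻¹ ∈ centralizer ({s} : Set Co1) := by
    intro a ha
    rw [mem_centralizer_singleton_iff, h]
    have h1 : a * s0 ^ i = s0 ^ i * a := ((show Commute a s0 from ha).pow_right i).eq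
    calc c * a * c⁻¹ * (c * s0 ^ i * c⁻¹) = c * (a * s0 ^ i) * c⁻¹ := by group
      _ = c * (s0 ^ i * a) * c⁻¹ := by rw [h1]
      _ = _ := by group
  refine EvenSyl.four_dvd (a := c * ea * c⁻¹) (b := c * eb * c⁻¹) ?_ ?_ ?_ ?_ ?_ ?_ (hc _ ea_s0) (hc _ eb_s0)
  · calc c * ea * c⁻¹ * (c * ea * c⁻¹) = c * (ea * ea) * c⁻¹ := by group
      _ = 1 := by rw [ea_sq]; group
  · calc c * eb * c⁻¹ * (c * eb * c⁻¹) = c * (eb * eb) * c⁻¹ := by group
      _ = 1 := by rw [eb_sq]; group
  · calc c * ea * c⁻¹ * (c * eb * c⁻¹) = c * (ea * eb) * c⁻¹ := by group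
      _ = c * (eb * ea) * c⁻¹ := by rw [eab]
      _ = _ := by group
  · exact fun h1 => ea_ne (by simpa using h1)
  · exact fun h1 => eb_ne (by simpa using h1)
  · intro h1
    exact ea_ne_eb (mul_left_cancel (mul_right_cancel h1))

open Cfsg.Agent.H813.CoSevenMain (pp BB BB_le card_BB order_pp)

theorem fr_pp : fr pp = 1 := Cfsg.Agent.H813.CoSevenData.fr_p0

/-- **`4 ∣ |C(s)|`** for the elements `s` of order seven -/
theorem four_dvd {s : Co1} (hs : orderOf s = 7) : 4 ∣ Nat.card (centralizer ({s} : Set Co1)) := by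
  have hf : Finite Co1 := BpSevenCo.Conj.finite_co1
  rcases CpAutMSeven.Ranks.hranks s hs with h | h
  · obtain ⟨g, i, hi, hg⟩ := BpSevenCo.Conj.conj_pow hs h
    obtain ⟨g', i', hi', hg'⟩ := BpSevenCo.Conj.conj_pow order_pp fr_pp
    have h1 : BpSevenCo.Conj.x ^ i ∈ zpowers (BpSevenCo.Conj.x ^ i') := by
      have h2 : zpowers (BpSevenCo.Conj.x ^ i') = zpowers BpSevenCo.Conj.x := by
        apply Subgroup.eq_of_le_of_card_ge (zpowers_le.2 (pow_mem (mem_zpowers _) _))
        rw [Nat.card_zpowers, Nat.card_zpowers, BpSevenCo.Conj.orderOf_x]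
        have h3 : orderOf (BpSevenCo.Conj.x ^ i') = 7 := by
          rw [← hg', ← MulAut.conj_apply, MulEquiv.orderOf_eq, order_pp]
        rw [h3]
      rw [h2]
      exact pow_mem (mem_zpowers _) _
    obtain ⟨m, hm⟩ := h1
    have hm' : (BpSevenCo.Conj.x ^ i') ^ m = BpSevenCo.Conj.x ^ i := hm
    have h4 : s = (g⁻¹ * g') * pp ^ m * (g⁻¹ * g')⁻¹ := by
      have h5 : g * s * g⁻¹ = g' * pp ^ m * g'⁻¹ := by
        rw [hg, ← hm', ← hg', conj_zpow]
      calc s = g⁻¹ * (g * s * g⁻¹) * g := by group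
        _ = g⁻¹ * (g' * pp ^ m * g'⁻¹) * g := by rw [h5]
        _ = _ := by group
    have h6 : BB.map (MulAut.conj (g⁻¹ * g')).toMonoidHom ≤ centralizer ({s} : Set Co1) := by
      rintro _ ⟨b, hb, rfl⟩
      rw [mem_centralizer_singleton_iff, h4]
      have h7 : b * pp = pp * b := mem_centralizer_singleton_iff.1 (BB_le hb)
      have h8 : b * pp ^ m = pp ^ m * b := ((show Commute b pp from h7).zpow_right m).eq
      show (g⁻¹ * g') * b * (g⁻¹ * g')⁻¹ * ((g⁻¹ * g') * pp ^ m * (g⁻¹ * g')⁻¹) =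
        (g⁻¹ * g') * pp ^ m * (g⁻¹ * g')⁻¹ * ((g⁻¹ * g') * b * (g⁻¹ * g')⁻¹)
      calc _ = (g⁻¹ * g') * (b * pp ^ m) * (g⁻¹ * g')⁻¹ := by group
        _ = (g⁻¹ * g') * (pp ^ m * b) * (g⁻¹ * g')⁻¹ := by rw [h8]
        _ = _ := by group
    have h9 := Subgroup.card_dvd_of_le h6
    have h10 : Nat.card (BB.map (MulAut.conj (g⁻¹ * g')).toMonoidHom) = 2520 := by
      rw [← card_BB]
      exact (Nat.card_congr (BB.equivMapOfInjective _ (MulAut.conj (g⁻¹ * g')).injective).toEquiv).symm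
    rw [h10] at h9
    exact Dvd.dvd.trans (by norm_num) h9
  · obtain ⟨c, i, hc⟩ := CpAutMSeven.Ranks.conj hs h
    exact four_of_conj (i := i) hc

/-- in `A₇` -/
theorem alt_seven {a b : alternatingGroup (Fin 7)} (hb : orderOf b = 7) (ha : a ^ 2 = 1) (hab : a * b = b * a) :
    a = 1 := by
  have h7 : Nat.Prime 7 := by norm_num
  have hb' : orderOf (b : Equiv.Perm (Fin 7)) = Fintype.card (Fin 7) := by
    rw [Subgroup.orderOf_coe, hb, Fintype.card_fin]
  have hcy : (b : Equiv.Perm (Fin 7)).IsCycle :=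
    Equiv.Perm.isCycle_of_prime_order'' (by rw [Fintype.card_fin]; exact h7) hb'
  have hsup : (b : Equiv.Perm (Fin 7)).support = Finset.univ := by
    apply Finset.eq_univ_of_card
    rw [← hcy.orderOf, hb']
  have h2 : Fact (Nat.Prime 2) := ⟨Nat.prime_two⟩
  obtain ⟨x, hx⟩ := Equiv.Perm.exists_fixed_point_of_prime (p := 2) (n := 1) (α := Fin 7)
    (by rw [Fintype.card_fin]; norm_num) (σ := (a : Equiv.Perm (Fin 7))) (by
      rw [pow_one]
      exact congrArg Subtype.val ha)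
  apply Subtype.ext
  apply Equiv.ext
  intro y
  obtain ⟨k, hk⟩ := hcy.exists_zpow_eq
    (show (b : Equiv.Perm (Fin 7)) x ≠ x from Equiv.Perm.mem_support.1 (hsup ▸ Finset.mem_univ x))
    (show (b : Equiv.Perm (Fin 7)) y ≠ y from Equiv.Perm.mem_support.1 (hsup ▸ Finset.mem_univ y))
  have h3 : Commute (a : Equiv.Perm (Fin 7)) (b : Equiv.Perm (Fin 7)) := congrArg Subtype.val hab
  have h4 := (h3.zpow_right k).eq
  have h5 : (a : Equiv.Perm (Fin 7)) (((b : Equiv.Perm (Fin 7)) ^ k) x) = ((b : Equiv.Perm (Fin 7)) ^ k) ((a : Equiv.Perm (Fin 7)) x) :=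
    congrArg (fun f : Equiv.Perm (Fin 7) => f x) h4
  rw [hx, hk] at h5
  exact h5

theorem card_co1 : Nat.card Co1 = 4157776806543360000 := S0399.result.2

/-- no involution centralizes a Sylow 7-subgroup -/
theorem no_inv (P : Sylow 7 Co1) (t : Co1) (ht : orderOf t = 2) (h : ∀ x ∈ (P : Subgroup Co1), t * x = x * t) :
    False := by
  have hf : Finite Co1 := BpSevenCo.Conj.finite_co1
  have h7 : Fact (Nat.Prime 7) := ⟨by norm_num⟩
  obtain ⟨V, hV, ⟨e⟩⟩ := Cfsg.Agent.H813.CoSevenMain.cent_seven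
  have hVp : IsPGroup 7 V := IsPGroup.of_card (n := 1) (by rw [hV, pow_one])
  obtain ⟨P', hP'⟩ := hVp.exists_le_sylow
  obtain ⟨g, hg⟩ := MulAction.exists_smul_eq Co1 P' P
  set t' : Co1 := g⁻¹ * t * g with ht'
  have ho' : orderOf t' = 2 := by
    have h1 : t' = MulAut.conj g⁻¹ t := by rw [MulAut.conj_apply, inv_inv]
    rw [h1, MulEquiv.orderOf_eq, ht]
  have hc' : ∀ x ∈ (P' : Subgroup Co1), t' * x = x * t' := by
    intro x hx
    have h1 : g * x * g⁻¹ ∈ (P : Subgroup Co1) := by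
      rw [← hg, Sylow.coe_subgroup_smul]
      exact smul_mem_pointwise_smul x (MulAut.conj g) _ hx
    have h2 := h _ h1
    calc t' * x = g⁻¹ * (t * (g * x * g⁻¹)) * g := by rw [ht']; group
      _ = g⁻¹ * ((g * x * g⁻¹) * t) * g := by rw [h2]
      _ = x * t' := by rw [ht']; group
  have hcard : Nat.card (P' : Subgroup Co1) = 7 ^ 2 := by
    have h1 := P'.card_eq_multiplicity
    rw [card_co1] at h1
    rw [h1]
    congr 1
    have h2 : (4157776806543360000 : ℕ) = 7 ^ 2 * 84852587888640000 := by norm_num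
    rw [h2, Nat.factorization_mul (by norm_num) (by norm_num), Finsupp.add_apply, h7.out.factorization_pow,
      Finsupp.single_eq_same, Nat.factorization_eq_zero_of_not_dvd (by norm_num)]
  have hcomm : ∀ a ∈ (P' : Subgroup Co1), ∀ b ∈ (P' : Subgroup Co1), a * b = b * a := by
    intro a ha b hb
    have h1 : IsMulCommutative (P' : Subgroup Co1) := IsPGroup.isMulCommutative_of_card_eq_prime_sq hcard
    exact congrArg Subtype.val (h1.is_comm.comm ⟨a, ha⟩ ⟨b, hb⟩)
  have hPC : ∀ x ∈ (P' : Subgroup Co1), x ∈ centralizer (V : Set Co1) := fun x hx =>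
    mem_centralizer_iff.2 fun v hv => hcomm v (hP' hv) x hx
  have htC : t' ∈ centralizer (V : Set Co1) := mem_centralizer_iff.2 fun v hv => (hc' v (hP' hv)).symm
  -- an element of `P'` with nontrivial second component
  obtain ⟨q, hq, hq1⟩ : ∃ q, ∃ hq : q ∈ (P' : Subgroup Co1), (e ⟨q, hPC q hq⟩).2 ≠ 1 := by
    by_contra hcon
    push Not at hcon
    have h1 : Function.Injective (fun q : (P' : Subgroup Co1) => (e ⟨q, hPC q q.2⟩).1) := by
      intro q r hqr
      have h2 : e ⟨q, hPC q q.2⟩ = e ⟨r, hPC r r.2⟩ :=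
        Prod.ext hqr ((hcon q q.2).trans (hcon r r.2).symm)
      have h3 := e.injective h2
      exact Subtype.ext (by simpa using h3)
    have h2 := Nat.card_le_card_of_injective _ h1
    rw [hcard, Nat.card_congr Multiplicative.toAdd, Nat.card_zmod] at h2
    norm_num at h2
  set b := (e ⟨q, hPC q hq⟩).2 with hbdef
  have hb : orderOf b = 7 := by
    have h1 : orderOf b ∣ orderOf (⟨q, hPC q hq⟩ : centralizer (V : Set Co1)) := by
      have h2 := orderOf_map_dvd ((MonoidHom.snd _ _).comp e.toMonoidHom) (⟨q, hPC q hq⟩ : centralizer (V : Set Co1))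
      exact h2
    replace h1 : orderOf b ∣ orderOf q := h1.trans (dvd_of_eq (Subgroup.orderOf_mk q (hPC q hq)))
    have h2 : orderOf q ∣ 7 ^ 2 := by
      rw [← hcard]
      exact Subgroup.orderOf_dvd_natCard _ hq
    obtain ⟨m, -, hm⟩ := (Nat.dvd_prime_pow h7.out).1 (h1.trans h2)
    have h3 : orderOf b ∣ 2520 := by
      have h4 := orderOf_dvd_natCard b
      have : Nontrivial (Fin 7) := inferInstance
      have h5 := nat_card_alternatingGroup (α := Fin 7)
      rw [Nat.card_eq_fintype_card (α := Fin 7), Fintype.card_fin] at h5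
      rw [h5] at h4
      exact h4.trans (by decide)
    rcases m with _ | _ | m
    · exact absurd (orderOf_eq_one_iff.1 (by rw [hm, pow_zero])) hq1
    · rw [hm]; norm_num
    · exfalso
      rw [hm] at h3
      have h5 : 7 ^ 2 ∣ 2520 := (pow_dvd_pow 7 (show 2 ≤ m + 1 + 1 by omega)).trans h3
      revert h5
      norm_num
  have ha : (e ⟨t', htC⟩).2 = 1 := by
    refine alt_seven (b := b) hb ?_ ?_
    · have h1 : (⟨t', htC⟩ : centralizer (V : Set Co1)) ^ 2 = 1 := by
        apply Subtype.ext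
        show t' ^ 2 = 1
        rw [← ho', pow_orderOf_eq_one]
      have h2 := congrArg e h1
      rw [map_pow, map_one] at h2
      exact congrArg Prod.snd h2
    · have h1 : (⟨t', htC⟩ : centralizer (V : Set Co1)) * ⟨q, hPC q hq⟩ = ⟨q, hPC q hq⟩ * ⟨t', htC⟩ :=
        Subtype.ext (hc' q hq)
      have h2 := congrArg e h1
      rw [map_mul, map_mul] at h2
      exact congrArg Prod.snd h2
  have h1 : (⟨t', htC⟩ : centralizer (V : Set Co1)) ^ 7 = 1 := by
    apply e.injective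
    rw [map_pow, map_one]
    refine Prod.ext ?_ ?_
    · have h2 := orderOf_dvd_natCard (e ⟨t', htC⟩).1
      rw [Nat.card_congr Multiplicative.toAdd, Nat.card_zmod] at h2
      exact orderOf_dvd_iff_pow_eq_one.1 h2
    · show (e ⟨t', htC⟩).2 ^ 7 = 1
      rw [ha, one_pow]
  have h2 : orderOf t' ∣ 7 := by
    rw [← Subgroup.orderOf_mk t' htC]
    exact orderOf_dvd_of_pow_eq_one h1
  rw [ho'] at h2
  norm_num at h2

/-- **The number of Sylow 7-subgroups of the centralizer of an element of order seven of `Co1` is even.** -/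
theorem even_card (s : Co1) (hs : orderOf s = 7) : Even (Nat.card (Sylow 7 (centralizer ({s} : Set Co1)))) := by
  have hf : Finite Co1 := BpSevenCo.Conj.finite_co1
  have h7 : Fact (Nat.Prime 7) := ⟨by norm_num⟩
  exact EvenSyl.even_card (k := 2) hs (by rw [card_co1]; norm_num) (by rw [card_co1]; norm_num)
    (by norm_num) (four_dvd hs) no_inv

end Cfsg.Agent.H642.CoSeven
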